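import Mathlib.LinearAlgebra.Matrix.GeneralLinearGroup.Basic
import Mathlib.Analysis.Complex.Polynomial.Basic
import Mathlib.FieldTheory.IsAlgClosed.Basic

set_option autoImplicit false

namespace Cfsg.Agent.H487

open Matrix

/-- The centre of `GL n ℂ` is divisible. -/
theorem center_GL_divisible (n : ℕ) (k : ℕ) (hk : k ≠ 0) (z : GL (Fin n) ℂ)
    (hz : z ∈ Subgroup.center (GL (Fin n) ℂ)) :
    ∃ w ∈ Subgroup.center (GL (Fin n) ℂ), w ^ k = z := by
  rw [Matrix.GeneralLinearGroup.center_eq_range_scalar] at hz ⊢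
  obtain ⟨c, rfl⟩ := hz
  obtain ⟨d, hd⟩ := IsAlgClosed.exists_pow_nat_eq (c : ℂ) (Nat.pos_of_ne_zero hk)
  have hd0 : d ≠ 0 := by
    rintro rfl
    rw [zero_pow hk] at hd
    exact c.ne_zero hd.symm
  refine ⟨_, ⟨Units.mk0 d hd0, rfl⟩, ?_⟩
  rw [← map_pow]
  congr 1
  ext
  simpa using hd

end Cfsg.Agent.H487
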