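import Mathlib.LinearAlgebra.Matrix.ToLin
import Mathlib.LinearAlgebra.Matrix.GeneralLinearGroup.Basic
import Mathlib.LinearAlgebra.FiniteDimensional.Basic
import Mathlib.Analysis.Complex.Basic
import Mathlib.Algebra.Module.Submodule.Pointwise

/-!
# The representation induced from a character of a central subgroup
-/

set_option autoImplicit false

universe u v w

namespace Cfsg.Agent.H487

open Function

variable {Δ : Type u} [Group Δ] (M : Subgroup Δ) (lam : M →* ℂˣ)

/-- Functions on `Δ` transforming by `lam` under left translation by `M`. -/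
def indSpace : Submodule ℂ (Δ → ℂ) where
  carrier := {f | ∀ (z : M) (x : Δ), f (z * x) = (lam z : ℂ) * f x}
  add_mem' := by
    intro a b ha hb z x
    simp only [Set.mem_ofPred_eq] at ha hb
    rw [Pi.add_apply, Pi.add_apply, ha, hb]; ring
  zero_mem' := by intro z x; simp
  smul_mem' := by
    intro c f hf z x
    simp only [Set.mem_ofPred_eq] at hf
    rw [Pi.smul_apply, Pi.smul_apply, hf, smul_eq_mul, smul_eq_mul]; ring

/-- Right translation. -/
def indRep : Δ →* (indSpace M lam →ₗ[ℂ] indSpace M lam) where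
  toFun g :=
    { toFun := fun f => ⟨fun x => f.1 (x * g), fun z x => by
        change f.1 (z * x * g) = (lam z : ℂ) * f.1 (x * g)
        rw [mul_assoc]; exact f.2 z (x * g)⟩
      map_add' := fun a b => rfl
      map_smul' := fun c a => rfl }
  map_one' := by
    ext f x
    change f.1 (x * 1) = f.1 x
    rw [mul_one]
  map_mul' a b := by
    ext f x
    change f.1 (x * (a * b)) = f.1 (x * a * b)
    rw [mul_assoc]

theorem indRep_apply (g : Δ) (f : indSpace M lam) (x : Δ) :
    (indRep M lam g f).1 x = f.1 (x * g) := rfl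

theorem indRep_central (hM : M ≤ Subgroup.center Δ) (z : M) :
    indRep M lam (z : Δ) = ((lam z : ℂ)) • LinearMap.id := by
  ext f x
  rw [indRep_apply, Subgroup.mem_center_iff.1 (hM z.2) x]
  exact f.2 z x

/-- There is a nonzero element of `indSpace`. -/
theorem exists_ne_zero_indSpace : ∃ f : indSpace M lam, f ≠ 0 := by
  classical
  refine ⟨⟨fun x => if h : x ∈ M then (lam ⟨x, h⟩ : ℂ) else 0, ?_⟩, ?_⟩
  · intro z x
    by_cases hx : x ∈ M
    · have hzx : (z : Δ) * x ∈ M := M.mul_mem z.2 hx
      change (if h : (z : Δ) * x ∈ M then (lam ⟨z * x, h⟩ : ℂ) else 0) =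
        (lam z : ℂ) * (if h : x ∈ M then (lam ⟨x, h⟩ : ℂ) else 0)
      rw [dif_pos hx, dif_pos hzx]
      have : (⟨z * x, hzx⟩ : M) = z * ⟨x, hx⟩ := rfl
      rw [this, map_mul, Units.val_mul]
    · have hzx : (z : Δ) * x ∉ M := fun h => hx (by
        have := M.mul_mem (M.inv_mem z.2) h
        simpa using this)
      change (if h : (z : Δ) * x ∈ M then (lam ⟨z * x, h⟩ : ℂ) else 0) =
        (lam z : ℂ) * (if h : x ∈ M then (lam ⟨x, h⟩ : ℂ) else 0)
      rw [dif_neg hx, dif_neg hzx, mul_zero]
  · intro h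
    have h1 := congrFun (congrArg Subtype.val h) 1
    change (if h : (1 : Δ) ∈ M then (lam ⟨1, h⟩ : ℂ) else 0) = 0 at h1
    rw [dif_pos M.one_mem] at h1
    exact (lam _).ne_zero h1

/-- A matrix representation of `Δ` in which the central subgroup `M` acts by `lam`. -/
theorem exists_matrix_rep [Finite Δ] (hM : M ≤ Subgroup.center Δ) :
    ∃ (n : ℕ) (ρ : Δ →* Matrix.GeneralLinearGroup (Fin n) ℂ),
      (∀ z ∈ M, ρ z ∈ Subgroup.center (Matrix.GeneralLinearGroup (Fin n) ℂ)) ∧
      ∀ z : M, ρ z = 1 → lam z = 1 := by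
  have : Module.Finite ℂ (indSpace M lam) := by
    have : Module.Finite ℂ (Δ → ℂ) := Module.Finite.pi
    infer_instance
  let b := Module.finBasis ℂ (indSpace M lam)
  let n := Module.finrank ℂ (indSpace M lam)
  let e := LinearMap.toMatrixAlgEquiv b
  let ρ0 : Δ →* Matrix (Fin n) (Fin n) ℂ := (e : _ →* _).comp (indRep M lam)
  let ρ : Δ →* Matrix.GeneralLinearGroup (Fin n) ℂ := MonoidHom.toHomUnits ρ0
  have hρ : ∀ g, ((ρ g : Matrix.GeneralLinearGroup (Fin n) ℂ) : Matrix (Fin n) (Fin n) ℂ) =
      e (indRep M lam g) := fun g => rfl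
  have hz : ∀ z : M, ((ρ z : Matrix.GeneralLinearGroup (Fin n) ℂ) : Matrix (Fin n) (Fin n) ℂ) =
      (lam z : ℂ) • (1 : Matrix (Fin n) (Fin n) ℂ) := by
    intro z
    rw [hρ, indRep_central M lam hM, map_smul]
    congr 1
    exact map_one e
  refine ⟨n, ρ, ?_, ?_⟩
  · intro z hzM
    rw [Subgroup.mem_center_iff]
    intro g
    ext1
    rw [Units.val_mul, Units.val_mul, hz ⟨z, hzM⟩]
    simp
  · intro z h1
    have h2 := hz z
    rw [h1, Units.val_one] at h2
    obtain ⟨f, hf⟩ := exists_ne_zero_indSpace M lam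
    have h3 : (LinearMap.id : indSpace M lam →ₗ[ℂ] indSpace M lam) =
        (lam z : ℂ) • LinearMap.id := by
      apply e.injective
      rw [map_smul]
      have : e LinearMap.id = 1 := map_one e
      rw [this]; exact h2
    have h4 := LinearMap.congr_fun h3 f
    simp only [LinearMap.id_coe, id_eq, LinearMap.smul_apply] at h4
    have h5 : ((lam z : ℂ) - 1) • f = 0 := by
      have h6 := sub_smul (lam z : ℂ) 1 f
      rw [h6, ← h4, one_smul, sub_self]
    rcases smul_eq_zero.1 h5 with h | h
    · ext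
      rw [Units.val_one]
      exact sub_eq_zero.1 h
    · exact absurd h hf

end Cfsg.Agent.H487
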