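import Cfsg.Agent.H487.TwProd
import Mathlib.LinearAlgebra.TensorProduct.Basic

/-!
# The Schur multiplier of a direct product
-/

set_option autoImplicit false

universe u v w u' v'

namespace Cfsg.Agent.H487

open Function
open scoped commutatorElement TensorProduct

section Lower

variable {Q₁ : Type u} {Q₂ : Type v} [Group Q₁] [Group Q₂]

/-- The tensor product of the abelianizations, written multiplicatively. -/
abbrev TT (Q₁ : Type u) (Q₂ : Type v) [Group Q₁] [Group Q₂] : Type (max u v) :=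
  Multiplicative (TensorProduct ℤ (Additive (Abelianization Q₁)) (Additive (Abelianization Q₂)))

/-- The pairing `Q₁ → Q₂ → Q₁ᵃᵇ ⊗ Q₂ᵃᵇ`. -/
def pairT (Q₁ : Type u) (Q₂ : Type v) [Group Q₁] [Group Q₂] : Q₁ →* Q₂ →* TT Q₁ Q₂ where
  toFun x :=
    { toFun := fun y => Multiplicative.ofAdd
        ((Additive.ofMul (Abelianization.of x)) ⊗ₜ[ℤ] (Additive.ofMul (Abelianization.of y)))
      map_one' := by
        rw [map_one]
        exact congrArg Multiplicative.ofAdd (TensorProduct.tmul_zero _ _)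
      map_mul' := by
        intro y y'
        rw [map_mul]
        exact congrArg Multiplicative.ofAdd (TensorProduct.tmul_add _ _ _) }
  map_one' := by
    refine MonoidHom.ext fun y => ?_
    change Multiplicative.ofAdd ((Additive.ofMul (Abelianization.of (1 : Q₁))) ⊗ₜ[ℤ]
      (Additive.ofMul (Abelianization.of y))) = 1
    rw [map_one]
    exact congrArg Multiplicative.ofAdd (TensorProduct.zero_tmul _ _)
  map_mul' := by
    intro x x'
    refine MonoidHom.ext fun y => ?_
    change Multiplicative.ofAdd ((Additive.ofMul (Abelianization.of (x * x'))) ⊗ₜ[ℤ]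
      (Additive.ofMul (Abelianization.of y))) = Multiplicative.ofAdd _ * Multiplicative.ofAdd _
    rw [map_mul]
    exact congrArg Multiplicative.ofAdd (TensorProduct.add_tmul _ _ _)

theorem pairT_apply (x : Q₁) (y : Q₂) : pairT Q₁ Q₂ x y = Multiplicative.ofAdd
    ((Additive.ofMul (Abelianization.of x)) ⊗ₜ[ℤ] (Additive.ofMul (Abelianization.of y))) := rfl

theorem closure_pairT : Subgroup.closure {t : TT Q₁ Q₂ | ∃ x y, pairT Q₁ Q₂ x y = t} = ⊤ := by
  rw [eq_top_iff]
  intro t _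
  have h : ∀ s : TensorProduct ℤ (Additive (Abelianization Q₁)) (Additive (Abelianization Q₂)),
      Multiplicative.ofAdd s ∈ Subgroup.closure {t : TT Q₁ Q₂ | ∃ x y, pairT Q₁ Q₂ x y = t} := by
    intro s
    induction s using TensorProduct.induction_on with
    | zero => exact Subgroup.one_mem _
    | tmul a b =>
      apply Subgroup.subset_closure
      obtain ⟨x, hx⟩ := QuotientGroup.mk'_surjective (_root_.commutator Q₁) (Additive.toMul a)
      obtain ⟨y, hy⟩ := QuotientGroup.mk'_surjective (_root_.commutator Q₂) (Additive.toMul b)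
      refine ⟨x, y, ?_⟩
      rw [pairT_apply]
      have h1 : (Additive.ofMul (Abelianization.of x)) = a := congrArg Additive.ofMul hx
      have h2 : (Additive.ofMul (Abelianization.of y)) = b := congrArg Additive.ofMul hy
      rw [h1, h2]
    | add a b ha hb => exact Subgroup.mul_mem _ ha hb
  exact h (Multiplicative.toAdd t)

variable {Γ₁ : Type u} {Γ₂ : Type v} [Group Γ₁] [Group Γ₂] (σ₁ : Γ₁ →* Q₁) (σ₂ : Γ₂ →* Q₂)

/-- The pulled back pairing. -/
def pairG : Γ₁ →* Γ₂ →* TT Q₁ Q₂ where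
  toFun x := (pairT Q₁ Q₂ (σ₁ x)).comp σ₂
  map_one' := by ext y; simp
  map_mul' a b := by ext y; simp

theorem pairG_apply (x : Γ₁) (y : Γ₂) : pairG σ₁ σ₂ x y = pairT Q₁ Q₂ (σ₁ x) (σ₂ y) := rfl

/-- The product extension. -/
def prodExt : TwProd (pairG σ₁ σ₂) →* Q₁ × Q₂ := (MonoidHom.prodMap σ₁ σ₂).comp TwProd.proj

theorem prodExt_apply (g : TwProd (pairG σ₁ σ₂)) : prodExt σ₁ σ₂ g = (σ₁ g.fst, σ₂ g.snd) := rfl

theorem isStemExtension_prodExt (h₁ : Cfsg.IsStemExtension σ₁) (h₂ : Cfsg.IsStemExtension σ₂) :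
    Cfsg.IsStemExtension (prodExt σ₁ σ₂) := by
  refine ⟨?_, ?_, ?_⟩
  · rintro ⟨a, b⟩
    obtain ⟨x, rfl⟩ := h₁.1 a
    obtain ⟨y, rfl⟩ := h₂.1 b
    exact ⟨⟨x, y, 1⟩, rfl⟩
  · intro g hg
    have hg' : prodExt σ₁ σ₂ g = 1 := hg
    rw [prodExt_apply, Prod.mk_eq_one] at hg'
    obtain ⟨hg1, hg2⟩ := hg'
    rw [Subgroup.mem_center_iff]
    intro k
    ext
    · exact Subgroup.mem_center_iff.1 (h₁.2.1 hg1) k.fst
    · exact Subgroup.mem_center_iff.1 (h₂.2.1 hg2) k.snd
    · simp only [TwProd.mul_thd, pairG_apply, hg1, hg2, map_one, MonoidHom.one_apply, mul_one]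
      exact mul_comm k.thd g.thd
  · intro g hg
    have hg' : prodExt σ₁ σ₂ g = 1 := hg
    rw [prodExt_apply, Prod.mk_eq_one] at hg'
    obtain ⟨hg1, hg2⟩ := hg'
    rw [TwProd.eq_prod g]
    have hmap : ∀ {X : Type _} [Group X] (f : X →* TwProd (pairG σ₁ σ₂)) (x : X),
        x ∈ _root_.commutator X → f x ∈ _root_.commutator (TwProd (pairG σ₁ σ₂)) := by
      intro X _ f x hx
      have h1 : (_root_.commutator X).map f ≤ _root_.commutator (TwProd (pairG σ₁ σ₂)) := by
        rw [_root_.commutator_def, _root_.commutator_def, Subgroup.map_commutator]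
        exact Subgroup.commutator_mono le_top le_top
      exact h1 ⟨x, hx, rfl⟩
    have hmap' : ∀ {X : Type _} [Group X] (f : X →* TwProd (pairG σ₁ σ₂)) (x : X),
        x ∈ _root_.commutator X → f x ∈ _root_.commutator (TwProd (pairG σ₁ σ₂)) := by
      intro X _ f x hx
      have h1 : (_root_.commutator X).map f ≤ _root_.commutator (TwProd (pairG σ₁ σ₂)) := by
        rw [_root_.commutator_def, _root_.commutator_def, Subgroup.map_commutator]
        exact Subgroup.commutator_mono le_top le_top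
      exact h1 ⟨x, hx, rfl⟩
    refine Subgroup.mul_mem _ (Subgroup.mul_mem _ ?_ ?_) ?_
    · exact hmap TwProd.inl _ (h₁.2.2 hg1)
    · exact hmap' TwProd.inr _ (h₂.2.2 hg2)
    · have h1 : (⊤ : Subgroup (TT Q₁ Q₂)) ≤
          (_root_.commutator (TwProd (pairG σ₁ σ₂))).comap TwProd.inT := by
        rw [← closure_pairT, Subgroup.closure_le]
        rintro _ ⟨x, y, rfl⟩
        obtain ⟨x, rfl⟩ := h₁.1 x
        obtain ⟨y, rfl⟩ := h₂.1 y
        exact TwProd.inT_beta_mem (β := pairG σ₁ σ₂) x y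
      exact h1 (Subgroup.mem_top _)

/-- The kernel of the product extension. -/
theorem nonempty_ker_prodExt {A : Type w} {B : Type u'} [Group A] [Group B]
    (e₁ : σ₁.ker ≃* A) (e₂ : σ₂.ker ≃* B) :
    Nonempty ((prodExt σ₁ σ₂).ker ≃* A × B × TT Q₁ Q₂) := by
  have hfst : ∀ g : (prodExt σ₁ σ₂).ker, σ₁ g.1.fst = 1 := fun g => (Prod.mk_eq_one.1 g.2).1
  have hsnd : ∀ g : (prodExt σ₁ σ₂).ker, σ₂ g.1.snd = 1 := fun g => (Prod.mk_eq_one.1 g.2).2
  let f : (prodExt σ₁ σ₂).ker →* A × B × TT Q₁ Q₂ :=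
    { toFun := fun g => (e₁ ⟨g.1.fst, hfst g⟩, e₂ ⟨g.1.snd, hsnd g⟩, g.1.thd)
      map_one' := by
        refine Prod.ext ?_ (Prod.ext ?_ rfl)
        · exact map_one e₁
        · exact map_one e₂
      map_mul' := by
        intro g h
        refine Prod.ext ?_ (Prod.ext ?_ ?_)
        · exact map_mul e₁ ⟨g.1.fst, hfst g⟩ ⟨h.1.fst, hfst h⟩
        · exact map_mul e₂ ⟨g.1.snd, hsnd g⟩ ⟨h.1.snd, hsnd h⟩
        · change (g.1 * h.1).thd = g.1.thd * h.1.thd
          rw [TwProd.mul_thd, pairG_apply, hfst h, map_one, MonoidHom.one_apply, mul_one] }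
  refine ⟨MulEquiv.ofBijective f ⟨?_, ?_⟩⟩
  · intro g h hgh
    have h1 := congrArg Prod.fst hgh
    have h2 := congrArg (fun p => p.2.1) hgh
    have h3 := congrArg (fun p => p.2.2) hgh
    apply Subtype.ext
    ext
    · exact congrArg Subtype.val (e₁.injective h1)
    · exact congrArg Subtype.val (e₂.injective h2)
    · exact h3
  · rintro ⟨a, b, t⟩
    refine ⟨⟨⟨e₁.symm a, e₂.symm b, t⟩, ?_⟩, ?_⟩
    · rw [MonoidHom.mem_ker, prodExt_apply, Prod.mk_eq_one]
      exact ⟨(e₁.symm a).2, (e₂.symm b).2⟩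
    · refine Prod.ext ?_ (Prod.ext ?_ rfl)
      · exact e₁.apply_symm_apply a
      · exact e₂.apply_symm_apply b

end Lower

end Cfsg.Agent.H487
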