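import Cfsg.Agent.H487.SchurProd

/-!
# The Schur multiplier of a direct product: upper bound and the theorem
-/

set_option autoImplicit false

universe u v w u' v'

namespace Cfsg.Agent.H487

open Function
open scoped commutatorElement TensorProduct

section Upper

variable {Q₁ : Type u} {Q₂ : Type v} [Group Q₁] [Group Q₂] {Δ : Type w} [Group Δ]
  (τ : Δ →* Q₁ × Q₂)

/-- Preimage of the first factor. -/
def DD1 : Subgroup Δ := ((MonoidHom.snd Q₁ Q₂).comp τ).ker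

/-- Preimage of the second factor. -/
def DD2 : Subgroup Δ := ((MonoidHom.fst Q₁ Q₂).comp τ).ker

theorem mem_DD1 {x : Δ} : x ∈ DD1 τ ↔ (τ x).2 = 1 := Iff.rfl

theorem mem_DD2 {x : Δ} : x ∈ DD2 τ ↔ (τ x).1 = 1 := Iff.rfl

instance normal_DD1 : (DD1 τ).Normal := MonoidHom.normal_ker _

instance normal_DD2 : (DD2 τ).Normal := MonoidHom.normal_ker _

/-- The restriction to the preimage of the first factor. -/
def res1 : DD1 τ →* Q₁ := ((MonoidHom.fst Q₁ Q₂).comp τ).comp (DD1 τ).subtype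

/-- The restriction to the preimage of the second factor. -/
def res2 : DD2 τ →* Q₂ := ((MonoidHom.snd Q₁ Q₂).comp τ).comp (DD2 τ).subtype

theorem res1_apply (x : DD1 τ) : res1 τ x = (τ x).1 := rfl

theorem res2_apply (x : DD2 τ) : res2 τ x = (τ x).2 := rfl

variable {τ}

theorem res1_surjective (hs : Surjective τ) : Surjective (res1 τ) := by
  intro q
  obtain ⟨x, hx⟩ := hs (q, 1)
  exact ⟨⟨x, by rw [mem_DD1, hx]⟩, by rw [res1_apply, hx]⟩

theorem res2_surjective (hs : Surjective τ) : Surjective (res2 τ) := by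
  intro q
  obtain ⟨x, hx⟩ := hs (1, q)
  exact ⟨⟨x, by rw [mem_DD2, hx]⟩, by rw [res2_apply, hx]⟩

theorem res1_ker (x : DD1 τ) : x ∈ (res1 τ).ker ↔ (x : Δ) ∈ τ.ker := by
  rw [MonoidHom.mem_ker, MonoidHom.mem_ker, res1_apply]
  constructor
  · intro h; exact Prod.ext h x.2
  · intro h; rw [h]; rfl

theorem res2_ker (x : DD2 τ) : x ∈ (res2 τ).ker ↔ (x : Δ) ∈ τ.ker := by
  rw [MonoidHom.mem_ker, MonoidHom.mem_ker, res2_apply]
  constructor
  · intro h; exact Prod.ext x.2 h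
  · intro h; rw [h]; rfl

theorem res1_central (hc : τ.ker ≤ Subgroup.center Δ) :
    (res1 τ).ker ≤ Subgroup.center (DD1 τ) := by
  intro x hx
  rw [res1_ker] at hx
  rw [Subgroup.mem_center_iff]
  intro y
  exact Subtype.ext (Subgroup.mem_center_iff.1 (hc hx) y)

theorem res2_central (hc : τ.ker ≤ Subgroup.center Δ) :
    (res2 τ).ker ≤ Subgroup.center (DD2 τ) := by
  intro x hx
  rw [res2_ker] at hx
  rw [Subgroup.mem_center_iff]
  intro y
  exact Subtype.ext (Subgroup.mem_center_iff.1 (hc hx) y)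

theorem comm_mem_ker {x y : Δ} (hx : x ∈ DD1 τ) (hy : y ∈ DD2 τ) : ⁅x, y⁆ ∈ τ.ker := by
  rw [MonoidHom.mem_ker, map_commutatorElement, commutatorElement_eq_one_iff_mul_comm]
  rw [mem_DD1] at hx
  rw [mem_DD2] at hy
  refine Prod.ext ?_ ?_
  · change (τ x).1 * (τ y).1 = (τ y).1 * (τ x).1
    rw [hy, mul_one, one_mul]
  · change (τ x).2 * (τ y).2 = (τ y).2 * (τ x).2
    rw [hx, mul_one, one_mul]

/-- The commutator pairing into the central kernel. -/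
theorem exists_comm_pairing (hs : Surjective τ) (hc : τ.ker ≤ Subgroup.center Δ) :
    ∃ f : TT Q₁ Q₂ →* τ.ker, ∀ x ∈ DD1 τ, ∀ y ∈ DD2 τ,
      ((f (pairT Q₁ Q₂ (τ x).1 (τ y).2) : τ.ker) : Δ) = ⁅x, y⁆ := by
  let _ : CommGroup τ.ker := commGroupOfLeCenter hc
  -- bimultiplicativity of the commutator
  have hcen : ∀ x ∈ DD1 τ, ∀ y ∈ DD2 τ, ∀ g : Δ, g * ⁅x, y⁆ = ⁅x, y⁆ * g :=
    fun x hx y hy g => Subgroup.mem_center_iff.1 (hc (comm_mem_ker hx hy)) g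
  have hmul1 : ∀ x ∈ DD1 τ, ∀ x' ∈ DD1 τ, ∀ y ∈ DD2 τ, ⁅x * x', y⁆ = ⁅x, y⁆ * ⁅x', y⁆ := by
    intro x hx x' hx' y hy
    have h1 : ⁅x * x', y⁆ = (x * ⁅x', y⁆ * x⁻¹) * ⁅x, y⁆ := by
      simp only [commutatorElement_def]; group
    rw [h1, hcen x' hx' y hy x, hcen x hx y hy ⁅x', y⁆ |>.symm]
    group
  have hmul2 : ∀ x ∈ DD1 τ, ∀ y ∈ DD2 τ, ∀ y' ∈ DD2 τ, ⁅x, y * y'⁆ = ⁅x, y⁆ * ⁅x, y'⁆ := by
    intro x hx y hy y' hy'
    have h1 : ⁅x, y * y'⁆ = ⁅x, y⁆ * (y * ⁅x, y'⁆ * y⁻¹) := by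
      simp only [commutatorElement_def]; group
    rw [h1, hcen x hx y' hy' y]
    group
  have hker1 : ∀ x ∈ τ.ker, ∀ y : Δ, ⁅x, y⁆ = 1 := by
    intro x hx y
    rw [commutatorElement_eq_one_iff_mul_comm]
    exact (Subgroup.mem_center_iff.1 (hc hx) y).symm
  have hker2 : ∀ x : Δ, ∀ y ∈ τ.ker, ⁅x, y⁆ = 1 := by
    intro x y hy
    rw [commutatorElement_eq_one_iff_mul_comm]
    exact (Subgroup.mem_center_iff.1 (hc hy) x)
  -- sections
  let s1 : Q₁ → DD1 τ := fun q => (res1_surjective hs q).choose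
  have hs1 : ∀ q, res1 τ (s1 q) = q := fun q => (res1_surjective hs q).choose_spec
  let s2 : Q₂ → DD2 τ := fun q => (res2_surjective hs q).choose
  have hs2 : ∀ q, res2 τ (s2 q) = q := fun q => (res2_surjective hs q).choose_spec
  have hind : ∀ (x x' : DD1 τ) (y y' : DD2 τ), res1 τ x = res1 τ x' → res2 τ y = res2 τ y' →
      ⁅(x : Δ), (y : Δ)⁆ = ⁅(x' : Δ), (y' : Δ)⁆ := by
    intro x x' y y' hx hy
    have h1 : ((x'⁻¹ * x : DD1 τ) : Δ) ∈ τ.ker := by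
      rw [← res1_ker, MonoidHom.mem_ker, map_mul, map_inv, hx]; group
    have h2 : ((y'⁻¹ * y : DD2 τ) : Δ) ∈ τ.ker := by
      rw [← res2_ker, MonoidHom.mem_ker, map_mul, map_inv, hy]; group
    have e1 : (x : Δ) = (x' : Δ) * ((x'⁻¹ * x : DD1 τ) : Δ) := by
      push_cast; group
    have e2 : (y : Δ) = (y' : Δ) * ((y'⁻¹ * y : DD2 τ) : Δ) := by
      push_cast; group
    calc ⁅(x : Δ), (y : Δ)⁆ = ⁅(x' : Δ) * ((x'⁻¹ * x : DD1 τ) : Δ), (y : Δ)⁆ := by rw [← e1]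
      _ = ⁅(x' : Δ), (y : Δ)⁆ * ⁅((x'⁻¹ * x : DD1 τ) : Δ), (y : Δ)⁆ :=
          hmul1 _ x'.2 _ (x'⁻¹ * x : DD1 τ).2 _ y.2
      _ = ⁅(x' : Δ), (y : Δ)⁆ := by rw [hker1 _ h1, mul_one]
      _ = ⁅(x' : Δ), (y' : Δ) * ((y'⁻¹ * y : DD2 τ) : Δ)⁆ := by rw [← e2]
      _ = ⁅(x' : Δ), (y' : Δ)⁆ * ⁅(x' : Δ), ((y'⁻¹ * y : DD2 τ) : Δ)⁆ :=
          hmul2 _ x'.2 _ y'.2 _ (y'⁻¹ * y : DD2 τ).2
      _ = ⁅(x' : Δ), (y' : Δ)⁆ := by rw [hker2 _ _ h2, mul_one]
  let P : Q₁ →* (Q₂ →* τ.ker) := MonoidHom.mk'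
    (fun q₁ => MonoidHom.mk' (fun q₂ => (⟨⁅(s1 q₁ : Δ), (s2 q₂ : Δ)⁆,
        comm_mem_ker (s1 q₁).2 (s2 q₂).2⟩ : τ.ker)) (by
      intro a b
      apply Subtype.ext
      change ⁅(s1 q₁ : Δ), (s2 (a * b) : Δ)⁆ = ⁅(s1 q₁ : Δ), (s2 a : Δ)⁆ * ⁅(s1 q₁ : Δ), (s2 b : Δ)⁆
      rw [← hmul2 _ (s1 q₁).2 _ (s2 a).2 _ (s2 b).2]
      exact hind (s1 q₁) (s1 q₁) (s2 (a * b)) (s2 a * s2 b) rfl (by rw [map_mul, hs2, hs2, hs2]))) (by
    intro a b
    refine MonoidHom.ext fun q => ?_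
    apply Subtype.ext
    change ⁅(s1 (a * b) : Δ), (s2 q : Δ)⁆ = ⁅(s1 a : Δ), (s2 q : Δ)⁆ * ⁅(s1 b : Δ), (s2 q : Δ)⁆
    rw [← hmul1 _ (s1 a).2 _ (s1 b).2 _ (s2 q).2]
    exact hind (s1 (a * b)) (s1 a * s1 b) (s2 q) (s2 q) (by rw [map_mul, hs1, hs1, hs1]) rfl)
  have hP : ∀ q₁ q₂, ((P q₁ q₂ : τ.ker) : Δ) = ⁅(s1 q₁ : Δ), (s2 q₂ : Δ)⁆ := fun _ _ => rfl
  -- to the abelianizations
  let P1 : Q₁ →* (Abelianization Q₂ →* τ.ker) := MonoidHom.mk' (fun q₁ => Abelianization.lift (P q₁)) (by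
    intro a b
    apply Abelianization.hom_ext
    refine MonoidHom.ext fun q => ?_
    simp)
  let P2 : Abelianization Q₁ →* (Abelianization Q₂ →* τ.ker) := Abelianization.lift P1
  have hP2 : ∀ q₁ q₂, P2 (Abelianization.of q₁) (Abelianization.of q₂) = P q₁ q₂ := by
    intro q₁ q₂
    simp [P2, P1]
  let L : Additive (Abelianization Q₁) →+ Additive (Abelianization Q₂) →+ Additive τ.ker :=
    AddMonoidHom.mk' (fun a => MonoidHom.toAdditive (P2 (Additive.toMul a))) (by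
      intro a b
      refine AddMonoidHom.ext fun c => ?_
      change Additive.ofMul (P2 (Additive.toMul a * Additive.toMul b) (Additive.toMul c)) = _
      rw [map_mul]
      rfl)
  have hL : ∀ a c, L a c = Additive.ofMul (P2 (Additive.toMul a) (Additive.toMul c)) :=
    fun _ _ => rfl
  let F := TensorProduct.liftAddHom (R := ℤ) L (by
    intro r m n
    rw [map_zsmul, map_zsmul]
    rfl)
  have hF : ∀ a c, F (a ⊗ₜ[ℤ] c) = L a c := fun a c => TensorProduct.liftAddHom_tmul _ _ _ _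
  refine ⟨AddMonoidHom.toMultiplicativeLeft F, ?_⟩
  intro x hx y hy
  have h1 : (AddMonoidHom.toMultiplicativeLeft F) (pairT Q₁ Q₂ (τ x).1 (τ y).2) =
      P (τ x).1 (τ y).2 := by
    rw [← hP2]
    have h0 : F ((Additive.ofMul (Abelianization.of (τ x).1)) ⊗ₜ[ℤ]
        (Additive.ofMul (Abelianization.of (τ y).2))) =
        Additive.ofMul (P2 (Abelianization.of (τ x).1) (Abelianization.of (τ y).2)) := by
      rw [hF, hL]; rfl
    exact congrArg Additive.toMul h0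
  rw [h1, hP]
  exact hind (s1 (τ x).1) ⟨x, hx⟩ (s2 (τ y).2) ⟨y, hy⟩ (by rw [hs1]; rfl) (by rw [hs2]; rfl)

/-- **Upper bound**: the multipliers of the factors and the tensor product of the abelianizations
together map onto the kernel of every stem extension of the product. -/
theorem exists_surj_prod {A : Type u'} {B : Type v'} [CommGroup A] [CommGroup B]
    (hA : Cfsg.HasSchurMultiplier Q₁ A) (hB : Cfsg.HasSchurMultiplier Q₂ B)
    (hτ : Cfsg.IsStemExtension τ) : ∃ f : A × B × TT Q₁ Q₂ →* τ.ker, Surjective f := by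
  obtain ⟨hs, hc, hc'⟩ := hτ
  obtain ⟨f3, hf3⟩ := exists_comm_pairing hs hc
  obtain ⟨g1, hg1⟩ := HasSchurMultiplier.exists_surj hA (res1_surjective hs) (res1_central hc)
  obtain ⟨g2, hg2⟩ := HasSchurMultiplier.exists_surj hB (res2_surjective hs) (res2_central hc)
  let _ : CommGroup τ.ker := commGroupOfLeCenter hc
  let f1 : A →* τ.ker :=
    (((DD1 τ).subtype.comp (Mult (res1 τ)).subtype).codRestrict τ.ker (by
      intro x
      exact (res1_ker x.1).1 x.2.1)).comp g1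
  let f2 : B →* τ.ker :=
    (((DD2 τ).subtype.comp (Mult (res2 τ)).subtype).codRestrict τ.ker (by
      intro x
      exact (res2_ker x.1).1 x.2.1)).comp g2
  have hf1 : ∀ x ∈ (_root_.commutator (DD1 τ)).map (DD1 τ).subtype, ∀ hx : x ∈ τ.ker,
      ∃ a, f1 a = ⟨x, hx⟩ := by
    rintro _ ⟨x, hx, rfl⟩ hxk
    obtain ⟨a, ha⟩ := hg1 ⟨x, (res1_ker x).2 hxk, hx⟩
    refine ⟨a, ?_⟩
    apply Subtype.ext
    change (((g1 a : Mult (res1 τ)) : DD1 τ) : Δ) = (x : Δ)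
    rw [ha]
  have hf2 : ∀ x ∈ (_root_.commutator (DD2 τ)).map (DD2 τ).subtype, ∀ hx : x ∈ τ.ker,
      ∃ a, f2 a = ⟨x, hx⟩ := by
    rintro _ ⟨x, hx, rfl⟩ hxk
    obtain ⟨a, ha⟩ := hg2 ⟨x, (res2_ker x).2 hxk, hx⟩
    refine ⟨a, ?_⟩
    apply Subtype.ext
    change (((g2 a : Mult (res2 τ)) : DD2 τ) : Δ) = (x : Δ)
    rw [ha]
  refine ⟨f1.coprod (f2.coprod f3), ?_⟩
  -- the commutator subgroup of `Δ`
  set C1 : Subgroup Δ := (_root_.commutator (DD1 τ)).map (DD1 τ).subtype with hC1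
  set C2 : Subgroup Δ := (_root_.commutator (DD2 τ)).map (DD2 τ).subtype with hC2
  set C3 : Subgroup Δ := f3.range.map τ.ker.subtype with hC3
  have hC1' : C1 = ⁅DD1 τ, DD1 τ⁆ := by
    rw [hC1, _root_.commutator_def, Subgroup.map_commutator, ← MonoidHom.range_eq_map,
      Subgroup.range_subtype]
  have hC2' : C2 = ⁅DD2 τ, DD2 τ⁆ := by
    rw [hC2, _root_.commutator_def, Subgroup.map_commutator, ← MonoidHom.range_eq_map,
      Subgroup.range_subtype]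
  have hn1 : C1.Normal := by rw [hC1']; infer_instance
  have hn2 : C2.Normal := by rw [hC2']; infer_instance
  have hn3 : C3.Normal := by
    apply normal_of_le_center
    rintro _ ⟨x, -, rfl⟩
    exact hc x.2
  have hgen : Subgroup.closure ((DD1 τ : Set Δ) ∪ (DD2 τ : Set Δ)) ⊔ Subgroup.center Δ = ⊤ := by
    rw [eq_top_iff]
    intro g _
    apply (le_sup_left : Subgroup.closure _ ≤ _)
    obtain ⟨x, hx⟩ := hs ((τ g).1, 1)
    have h1 : x ∈ DD1 τ := by rw [mem_DD1, hx]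
    have h2 : x⁻¹ * g ∈ DD2 τ := by
      rw [mem_DD2, map_mul, map_inv, hx]
      change ((τ g).1)⁻¹ * (τ g).1 = 1
      group
    have e : g = x * (x⁻¹ * g) := by group
    rw [e]
    exact Subgroup.mul_mem _ (Subgroup.subset_closure (Or.inl h1))
      (Subgroup.subset_closure (Or.inr h2))
  have hle : _root_.commutator Δ ≤ C1 ⊔ C2 ⊔ C3 := by
    have hn : (C1 ⊔ C2 ⊔ C3).Normal := inferInstance
    refine (commutator_le_of_generators _ hgen (C1 ⊔ C2 ⊔ C3) ?_ ?_).2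
    · intro s _ m hm
      refine ⟨hn.conj_mem m hm s, ?_⟩
      have := hn.conj_mem m hm s⁻¹
      rwa [inv_inv] at this
    · have h12 : ∀ x ∈ DD1 τ, ∀ y ∈ DD2 τ, ⁅x, y⁆ ∈ C1 ⊔ C2 ⊔ C3 := by
        intro x hx y hy
        apply (le_sup_right : C3 ≤ _)
        exact ⟨_, ⟨pairT Q₁ Q₂ (τ x).1 (τ y).2, rfl⟩, hf3 x hx y hy⟩
      intro s hs' t ht
      rcases hs' with hs' | hs' <;> rcases ht with ht | ht
      · apply (le_sup_left : C1 ⊔ C2 ≤ _)
        apply (le_sup_left : C1 ≤ _)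
        rw [hC1']
        exact Subgroup.commutator_mem_commutator hs' ht
      · exact h12 s hs' t ht
      · have h1 : ⁅s, t⁆ = ⁅t, s⁆⁻¹ := (commutatorElement_inv t s).symm
        rw [h1]
        exact Subgroup.inv_mem _ (h12 t ht s hs')
      · apply (le_sup_left : C1 ⊔ C2 ≤ _)
        apply (le_sup_right : C2 ≤ _)
        rw [hC2']
        exact Subgroup.commutator_mem_commutator hs' ht
  rintro ⟨k, hk⟩
  have hk' := hle (hc' hk)
  rw [Subgroup.mem_sup_of_normal_right] at hk'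
  obtain ⟨m, hm, c, hc3, hmc⟩ := hk'
  rw [Subgroup.mem_sup_of_normal_right] at hm
  obtain ⟨x, hx, y, hy, hxy⟩ := hm
  obtain ⟨c', ⟨t, rfl⟩, hct⟩ := hc3
  have hcker : c ∈ τ.ker := by rw [← hct]; exact (f3 t).2
  have hx1 : x ∈ DD1 τ := by
    obtain ⟨x', -, rfl⟩ := hx; exact x'.2
  have hy1 : y ∈ DD2 τ := by
    obtain ⟨y', -, rfl⟩ := hy; exact y'.2
  have hxyk : τ x * τ y = 1 := by
    have h1 : τ k = 1 := hk
    rw [← hmc, map_mul, ← hxy, map_mul] at h1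
    have h2 : τ c = 1 := hcker
    rw [h2, mul_one] at h1
    exact h1
  have hxk : x ∈ τ.ker := by
    rw [MonoidHom.mem_ker]
    refine Prod.ext ?_ (by rw [mem_DD1] at hx1; exact hx1)
    have h1 := congrArg Prod.fst hxyk
    change (τ x).1 * (τ y).1 = 1 at h1
    rw [mem_DD2] at hy1
    rw [hy1, mul_one] at h1
    exact h1
  have hyk : y ∈ τ.ker := by
    rw [MonoidHom.mem_ker]
    have h1 : τ x = 1 := hxk
    rw [h1, one_mul] at hxyk
    exact hxyk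
  obtain ⟨a, ha⟩ := hf1 x hx hxk
  obtain ⟨b, hb⟩ := hf2 y hy hyk
  refine ⟨(a, b, t), ?_⟩
  rw [MonoidHom.coprod_apply, MonoidHom.coprod_apply, ha, hb]
  apply Subtype.ext
  change x * (y * ((f3 t : τ.ker) : Δ)) = k
  rw [← hmc, ← hxy, ← hct]
  change x * (y * ((f3 t : τ.ker) : Δ)) = x * y * ((f3 t : τ.ker) : Δ)
  rw [mul_assoc]

/-- The Schur multiplier of a direct product of finite groups. -/
theorem hasSchurMultiplier_prod {A : Type u'} {B : Type v'} [CommGroup A] [CommGroup B]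
    (hA : Cfsg.HasSchurMultiplier Q₁ A) (hB : Cfsg.HasSchurMultiplier Q₂ B) :
    Cfsg.HasSchurMultiplier (Q₁ × Q₂) (A × B × TT Q₁ Q₂) := by
  have hf1 := finite_base hA
  have hf2 := finite_base hB
  refine ⟨?_, fun Γ _ _ σ hσ => exists_surj_prod hA hB hσ⟩
  obtain ⟨⟨Γ₁, _, _, σ₁, hσ₁, ⟨e₁⟩⟩, -⟩ := hA
  obtain ⟨⟨Γ₂, _, _, σ₂, hσ₂, ⟨e₂⟩⟩, -⟩ := hB
  have hst := isStemExtension_prodExt σ₁ σ₂ hσ₁ hσ₂
  exact ⟨TwProd (pairG σ₁ σ₂), inferInstance, finite_of_isStemExtension hst, prodExt σ₁ σ₂, hst,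
    nonempty_ker_prodExt σ₁ σ₂ e₁ e₂⟩

end Upper

end Cfsg.Agent.H487
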