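import Cfsg.Agent.H487.SchurMult
import Cfsg.Agent.H487.GenComm
import Mathlib.Algebra.Group.MinimalAxioms

/-!
# Twisted products `X × Y × T` by a bimultiplicative map `X → Y → T`, as central extensions
-/

set_option autoImplicit false

universe u v w u' v'

namespace Cfsg.Agent.H487

open Function
open scoped commutatorElement

/-- The twisted product. -/
@[ext] structure TwProd {X : Type u} {Y : Type v} {T : Type w} [Group X] [Group Y] [CommGroup T]
    (β : X →* Y →* T) : Type (max u v w) where
  fst : X
  snd : Y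
  thd : T

namespace TwProd

variable {X : Type u} {Y : Type v} {T : Type w} [Group X] [Group Y] [CommGroup T]
  {β : X →* Y →* T}

instance instMulTwProd : Mul (TwProd β) :=
  ⟨fun g h => ⟨g.fst * h.fst, g.snd * h.snd, g.thd * h.thd * β h.fst g.snd⟩⟩

instance instOneTwProd : One (TwProd β) := ⟨⟨1, 1, 1⟩⟩

instance instInvTwProd : Inv (TwProd β) := ⟨fun g => ⟨g.fst⁻¹, g.snd⁻¹, g.thd⁻¹ * β g.fst g.snd⟩⟩

theorem mul_def (g h : TwProd β) :
    g * h = ⟨g.fst * h.fst, g.snd * h.snd, g.thd * h.thd * β h.fst g.snd⟩ := rfl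

theorem one_def : (1 : TwProd β) = ⟨1, 1, 1⟩ := rfl

theorem inv_def (g : TwProd β) : g⁻¹ = ⟨g.fst⁻¹, g.snd⁻¹, g.thd⁻¹ * β g.fst g.snd⟩ := rfl

@[simp] theorem mul_fst (g h : TwProd β) : (g * h).fst = g.fst * h.fst := rfl
@[simp] theorem mul_snd (g h : TwProd β) : (g * h).snd = g.snd * h.snd := rfl
@[simp] theorem mul_thd (g h : TwProd β) : (g * h).thd = g.thd * h.thd * β h.fst g.snd := rfl
@[simp] theorem one_fst : (1 : TwProd β).fst = 1 := rfl
@[simp] theorem one_snd : (1 : TwProd β).snd = 1 := rfl
@[simp] theorem one_thd : (1 : TwProd β).thd = 1 := rfl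

instance instGroupTwProd : Group (TwProd β) :=
  Group.ofLeftAxioms
    (by
      intro a b c
      ext
      · simp [mul_assoc]
      · simp [mul_assoc]
      · simp only [mul_thd, mul_fst, mul_snd, map_mul, MonoidHom.mul_apply]
        simp only [mul_assoc, mul_comm, mul_left_comm])
    (by intro a; ext <;> simp)
    (by
      intro a
      ext
      · simp [inv_def]
      · simp [inv_def]
      · simp [inv_def])

/-- The projection. -/
def proj : TwProd β →* X × Y where
  toFun g := (g.fst, g.snd)
  map_one' := rfl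
  map_mul' _ _ := rfl

/-- The first inclusion. -/
def inl : X →* TwProd β where
  toFun x := ⟨x, 1, 1⟩
  map_one' := rfl
  map_mul' a b := by ext <;> simp

/-- The second inclusion. -/
def inr : Y →* TwProd β where
  toFun y := ⟨1, y, 1⟩
  map_one' := rfl
  map_mul' a b := by ext <;> simp

/-- The inclusion of the kernel. -/
def inT : T →* TwProd β where
  toFun t := ⟨1, 1, t⟩
  map_one' := rfl
  map_mul' a b := by ext <;> simp

@[simp] theorem inl_fst (x : X) : (inl x : TwProd β).fst = x := rfl
@[simp] theorem inl_snd (x : X) : (inl x : TwProd β).snd = 1 := rfl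
@[simp] theorem inl_thd (x : X) : (inl x : TwProd β).thd = 1 := rfl
@[simp] theorem inr_fst (x : Y) : (inr x : TwProd β).fst = 1 := rfl
@[simp] theorem inr_snd (x : Y) : (inr x : TwProd β).snd = x := rfl
@[simp] theorem inr_thd (x : Y) : (inr x : TwProd β).thd = 1 := rfl
@[simp] theorem inT_fst (x : T) : (inT x : TwProd β).fst = 1 := rfl
@[simp] theorem inT_snd (x : T) : (inT x : TwProd β).snd = 1 := rfl
@[simp] theorem inT_thd (x : T) : (inT x : TwProd β).thd = x := rfl

theorem eq_prod (g : TwProd β) : g = inl g.fst * inr g.snd * inT g.thd := by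
  ext <;> simp

theorem inT_beta_mem (x : X) (y : Y) : (inT (β x y) : TwProd β) ∈ _root_.commutator (TwProd β) := by
  have h : (inT (β x y) : TwProd β) = ⁅(inr y : TwProd β)⁻¹, (inl x : TwProd β)⁻¹⁆ := by
    rw [commutatorElement_def, inv_inv, inv_inv]
    have : (inr y : TwProd β) * inl x = inl x * inr y * (inT (β x y) : TwProd β) := by ext <;> simp
    have h2 : (inr y : TwProd β)⁻¹ * (inl x)⁻¹ * inr y * inl x =
      (inl x * inr y)⁻¹ * (inr y * inl x) := by group
    rw [h2, this]; group
  rw [h, _root_.commutator_def]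
  exact Subgroup.commutator_mem_commutator (Subgroup.mem_top _) (Subgroup.mem_top _)

end TwProd

end Cfsg.Agent.H487
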